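import Cfsg.Prelude.Def_JankoFourType
import Cfsg.Prelude.Def_CaseTheorems
import Cfsg.Agent.KFacts.MM.OutAut
import Cfsg.Agent.SporadicA.MathieuRecog

/-!
# S3319: the order of the centraliser (helper3, second round)

`card_cent` : `|C(f)| = 2 ^ 19 * 3465`.
-/

set_option autoImplicit false

namespace Cfsg.Agent.R2.H3.Base

open Subgroup

theorem card_mulAut : Nat.card (MulAut ↥Cfsg.Spor.M22) = 887040 := by
  have hD : Nat.card Cfsg.Agent.J4Type.Aut22.D22 = 887040 := Cfsg.Agent.J4Type.Aut22.card_D22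
  rw [← hD, ← Cfsg.Agent.KFacts.MM.OutAut.emb_range]
  exact Nat.card_congr (MonoidHom.ofInjective Cfsg.Agent.KFacts.MM.OutAut.emb_inj).toEquiv

variable {G : Type*} [Group G] {f : G}

theorem card_pCore (hcard : Nat.card ↥(Cfsg.twoCoreOfCentralizer f) = 2 ^ 11) :
    Nat.card ↥(Cfsg.pCore 2 ↥(centralizer ({f} : Set G))) = 2 ^ 11 := by
  rw [← hcard]
  exact Nat.card_congr ((Cfsg.pCore 2 ↥(centralizer ({f} : Set G))).equivMapOfInjective _
    (subtype_injective _)).toEquiv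

theorem card_cent (hcard : Nat.card ↥(Cfsg.twoCoreOfCentralizer f) = 2 ^ 11)
    (hq : Nonempty (↥(centralizer ({f} : Set G)) ⧸ Cfsg.pCore 2 ↥(centralizer ({f} : Set G)) ≃*
      MulAut ↥Cfsg.Spor.M22)) :
    Nat.card ↥(centralizer ({f} : Set G)) = 2 ^ 19 * 3465 := by
  obtain ⟨e⟩ := hq
  rw [Subgroup.card_eq_card_quotient_mul_card_subgroup (Cfsg.pCore 2 ↥(centralizer ({f} : Set G))),
    card_pCore hcard, Nat.card_congr e.toEquiv, card_mulAut]
  norm_num

end Cfsg.Agent.R2.H3.Base
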