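import Cfsg.Prelude.Def_CaseTheorems
import Cfsg.Agent.H11.LStar
import Cfsg.Agent.R2.H3.Base

/-!
# S3319: the component (helper3, second round)

`exists_comp` : `C / O ≅ Aut(S)`, `S` nonabelian simple, `|Aut(S)| = 2 |S|`, all perfect subgroups of `C` centralise `O`:
then `C` has a normal component with simple quotient `S`.
-/

set_option autoImplicit false

namespace Cfsg.Agent.R2.H3.Comp

open Subgroup

variable {S : Type*} [Group S]

theorem inn_normal : (MulAut.conj (G := S)).range.Normal := by
  refine ⟨?_⟩
  rintro _ ⟨s, rfl⟩ φ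
  refine ⟨φ s, ?_⟩
  ext x
  simp [MulAut.mul_apply, MulAut.conj_apply]

theorem conj_inj [IsSimpleGroup S] (hna : ¬ ∀ a b : S, a * b = b * a) : Function.Injective (MulAut.conj (G := S)) := by
  rw [← MonoidHom.ker_eq_bot_iff]
  rcases IsSimpleGroup.eq_bot_or_eq_top_of_normal (MulAut.conj (G := S)).ker inferInstance with h | h
  · exact h
  · exfalso
    apply hna
    intro a b
    have h1 : a ∈ (MulAut.conj (G := S)).ker := by rw [h]; exact mem_top _
    rw [MonoidHom.mem_ker] at h1
    have h2 := congrArg (fun f : MulAut S => f b) h1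
    simp only [MulAut.conj_apply, MulAut.one_apply] at h2
    rw [mul_inv_eq_iff_eq_mul] at h2
    exact h2

/-- a perfect subgroup of `Aut(S)` is in `Inn(S)` -/
theorem le_inn [Finite S] (hc : Nat.card (MulAut S) = 2 * Nat.card S)
    (hinj : Function.Injective (MulAut.conj (G := S))) {R : Subgroup (MulAut S)} (hR : ⁅R, R⁆ = R) :
    R ≤ (MulAut.conj (G := S)).range := by
  have hfin : Finite (MulAut S) := Nat.finite_of_card_ne_zero (by
    rw [hc]
    have := Nat.card_pos (α := S)
    omega)
  have hidx : (MulAut.conj (G := S)).range.index = 2 := by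
    have h1 := (MulAut.conj (G := S)).range.card_mul_index
    rw [hc, ← Nat.card_congr (MonoidHom.ofInjective hinj).toEquiv] at h1
    have h2 := Nat.card_pos (α := S)
    exact Nat.eq_of_mul_eq_mul_left h2 (by rw [h1]; ring)
  have hn := inn_normal (S := S)
  have h1 : commutator (MulAut S) ≤ (MulAut.conj (G := S)).range := by
    have h2 : Nat.card (MulAut S ⧸ (MulAut.conj (G := S)).range) = 2 := hidx
    have h3 : Fact (Nat.Prime 2) := ⟨Nat.prime_two⟩
    have h4 : IsCyclic (MulAut S ⧸ (MulAut.conj (G := S)).range) := isCyclic_of_prime_card h2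
    have h5 : IsMulCommutative (MulAut S ⧸ (MulAut.conj (G := S)).range) := IsCyclic.isMulCommutative
    rw [commutator_def, commutator_le]
    intro a _ b _
    rw [← QuotientGroup.eq_one_iff]
    rw [← QuotientGroup.mk'_apply, map_commutatorElement, commutatorElement_eq_one_iff_mul_comm]
    exact h5.is_comm.comm _ _
  calc R = ⁅R, R⁆ := hR.symm
    _ ≤ commutator (MulAut S) := by
      rw [commutator_def]
      exact commutator_mono le_top le_top
    _ ≤ _ := h1

theorem exists_comp {C : Type*} [Group C] [Finite C] {O : Subgroup C} [hO : O.Normal] [Finite S] [IsSimpleGroup S]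
    (hna : ¬ ∀ a b : S, a * b = b * a) (hc : Nat.card (MulAut S) = 2 * Nat.card S)
    (e : C ⧸ O ≃* MulAut S)
    (hz : ∀ L : Subgroup C, ⁅L, L⁆ = L → ∀ g ∈ L, ∀ x ∈ O, g * x = x * g) :
    ∃ L : Subgroup C, L.Normal ∧ Cfsg.IsComponent L ∧ Nonempty (↥L ⧸ center ↥L ≃* S) := by
  classical
  have hinj := conj_inj hna
  obtain ⟨N, hNc, hNp, n, hn⟩ := Cfsg.Agent.H11.LStar.exists_perfect_residual C
  let π : C →* MulAut S := e.toMonoidHom.comp (QuotientGroup.mk' O)
  have hπs : Function.Surjective π := e.surjective.comp (QuotientGroup.mk'_surjective O)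
  have hπk : ∀ x, π x = 1 ↔ x ∈ O := by
    intro x
    change e (QuotientGroup.mk' O x) = 1 ↔ _
    rw [map_eq_one_iff e e.injective, QuotientGroup.mk'_apply, QuotientGroup.eq_one_iff]
  set R := N.map π with hRdef
  have hRp : ⁅R, R⁆ = R := by rw [hRdef, ← map_commutator, hNp]
  have hRle := le_inn hc hinj hRp
  have hNn : N.Normal := inferInstance
  have hRn : R.Normal := hNn.map π hπs
  -- `R` is all of `Inn(S)`
  have hR : R = (MulAut.conj (G := S)).range := by
    have h1 : (R.comap (MulAut.conj (G := S))).Normal := inferInstance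
    rcases IsSimpleGroup.eq_bot_or_eq_top_of_normal (R.comap (MulAut.conj (G := S))) h1 with h | h
    · exfalso
      have h2 : R = ⊥ := by
        rw [eq_bot_iff]
        intro r hr
        obtain ⟨s, rfl⟩ := hRle hr
        have h3 : s ∈ R.comap (MulAut.conj (G := S)) := hr
        rw [h, mem_bot] at h3
        rw [h3, map_one]
        exact one_mem _
      have h4 : derivedSeries (MulAut S) n = ⊥ := by
        rw [← map_derivedSeries_eq hπs, hn]
        exact h2
      have h5 : Group.IsSolvable (MulAut S) := ⟨⟨n, h4⟩⟩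
      have h6 : Group.IsSolvable S := Group.isSolvable_of_isSolvable_injective hinj
      exact hna fun a b => (IsSimpleGroup.comm_iff_isSolvable.2 h6) a b
    · refine le_antisymm hRle ?_
      rintro _ ⟨s, rfl⟩
      have h3 : s ∈ R.comap (MulAut.conj (G := S)) := by rw [h]; exact mem_top _
      exact h3
  -- the map `N → S`
  let eI := MonoidHom.ofInjective hinj
  let ρ : ↥N →* S := eI.symm.toMonoidHom.comp ((π.comp N.subtype).codRestrict (MulAut.conj (G := S)).range (by
    intro x
    rw [← hR]
    exact mem_map_of_mem π x.2))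
  have hρ : ∀ x : ↥N, MulAut.conj (ρ x) = π x := by
    intro x
    have h1 := congrArg Subtype.val (eI.apply_symm_apply ((π.comp N.subtype).codRestrict (MulAut.conj (G := S)).range
      (by
        intro x
        rw [← hR]
        exact mem_map_of_mem π x.2) x))
    exact h1
  have hρs : Function.Surjective ρ := by
    intro s
    have h1 : MulAut.conj s ∈ R := by rw [hR]; exact ⟨s, rfl⟩
    obtain ⟨x, hx, hxs⟩ := h1
    refine ⟨⟨x, hx⟩, hinj ?_⟩
    rw [hρ]
    exact hxs
  have hker : ρ.ker = center ↥N := by
    apply le_antisymm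
    · intro x hx
      rw [mem_center_iff]
      intro y
      have h1 : (x : C) ∈ O := by
        rw [← hπk, ← hρ]
        rw [MonoidHom.mem_ker] at hx
        rw [hx, map_one]
      exact Subtype.ext (hz N hNp y y.2 x h1)
    · intro x hx
      rw [MonoidHom.mem_ker]
      have h1 : ρ x ∈ center S := by
        rw [mem_center_iff]
        intro s
        obtain ⟨y, rfl⟩ := hρs s
        rw [← map_mul, ← map_mul, mem_center_iff.1 hx]
      rcases IsSimpleGroup.eq_bot_or_eq_top_of_normal (center S) inferInstance with h | h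
      · rw [h, mem_bot] at h1
        exact h1
      · exfalso
        apply hna
        intro a b
        have : b ∈ center S := by rw [h]; exact mem_top _
        exact mem_center_iff.1 this a
  have eq : ↥N ⧸ center ↥N ≃* S :=
    (QuotientGroup.quotientMulEquivOfEq hker.symm).trans (QuotientGroup.quotientKerEquivOfSurjective ρ hρs)
  refine ⟨N, hNn, ⟨hNn.isSubnormal, ?_, eq.isSimpleGroup⟩, ⟨eq⟩⟩
  rw [Group.isPerfect_def]
  apply (map_injective (N.subtype_injective))
  rw [commutator_def, map_commutator, ← MonoidHom.range_eq_map, N.range_subtype]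
  exact hNp

end Cfsg.Agent.R2.H3.Comp
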