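import Cfsg.Agent.R2.H3.Num
import Cfsg.Agent.H174.JordanExists
import Cfsg.Agent.H174.JordanMatrix
import Cfsg.Agent.H174.JordanClass

/-!
# S3319: the Jordan form of an involution in characteristic two (helper3, second round)
-/

set_option autoImplicit false

namespace Cfsg.Agent.R2.H3.Jor

open Cfsg Cfsg.Agent.H174 Module

theorem exists_fin {s : Multiset ℕ} : ∃ (t : ℕ) (d : Fin t → ℕ), Finset.univ.val.map d = s := by
  refine ⟨s.toList.length, s.toList.get, ?_⟩
  have h1 : (Finset.univ : Finset (Fin s.toList.length)).val = (List.finRange s.toList.length : Multiset (Fin _)) := rfl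
  rw [h1, Multiset.map_coe, List.map_get_finRange, Multiset.coe_toList]

/-- the Jordan form of a matrix of square one -/
theorem exists_jordan {F : Type*} [Field F] [CharP F 2] {n : Type*} [Fintype n] [DecidableEq n] (A : Matrix n n F)
    (hA : A * A = 1) : ∃ (t : ℕ) (d : Fin t → ℕ) (e : ((k : Fin t) × Fin (d k)) ≃ n), (∀ k, 1 ≤ d k) ∧
      (∀ k, d k ≤ 2) ∧ IsConj (Matrix.reindex e e (Cfsg.jordanTypeMatrix d F)) A := by
  classical
  let N : (n → F) →ₗ[F] (n → F) := Matrix.toLin' A - LinearMap.id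
  have hN : N ^ 2 = 0 := by
    have h1 : N = Matrix.toLin' (A - 1) := by
      rw [map_sub, Matrix.toLin'_one]
    have h2 : (A - 1) * (A - 1) = 0 := by
      rw [sub_mul, mul_sub, hA, one_mul, mul_one]
      have h3 : (1 : Matrix n n F) - A - (A - 1) = 2 • (1 - A) := by
        rw [two_nsmul]; abel
      rw [h3, ← Nat.cast_smul_eq_nsmul F 2, CharP.cast_eq_zero, zero_smul]
    rw [h1, pow_two, Module.End.mul_eq_comp, ← Matrix.toLin'_mul, h2, map_zero]
  obtain ⟨s, hs, h⟩ := exists_isJT (N := N) ⟨2, hN⟩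
  have hs2 := (h.pow_eq_zero_iff 2).1 hN
  obtain ⟨t, d, rfl⟩ := exists_fin (s := s)
  obtain ⟨b, hb⟩ := h.exists_basis
  have hcard : Fintype.card ((k : Fin t) × Fin (d k)) = Fintype.card n := by
    rw [← finrank_eq_card_basis b, finrank_fintype_fun_eq_card]
  obtain e := Fintype.equivOfCardEq hcard
  refine ⟨t, d, e, fun k => hs _ (Multiset.mem_map_of_mem _ (Finset.mem_univ_val k)),
    fun k => hs2 _ (Multiset.mem_map_of_mem _ (Finset.mem_univ_val k)), ?_⟩
  have h3 := toMatrix_of_isJB (u := Matrix.toLin' A) hb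
  have h4 := isConj_toMatrix b (Pi.basisFun F n) e (Matrix.toLin' A)
  rw [h3, LinearMap.toMatrix_eq_toMatrix', LinearMap.toMatrix'_toLin'] at h4
  exact h4

end Cfsg.Agent.R2.H3.Jor
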