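import Cfsg.Agent.R2.H3.Jor
import Cfsg.Agent.S2581
import Cfsg.Agent.S2646

/-!
# S3319: orders of the centralisers of involutions in `GL`, `GU`, characteristic two (helper3, second round)
-/

set_option autoImplicit false

namespace Cfsg.Agent.R2.H3.JorNum

open Cfsg

/-- number of blocks of size `i` -/
def cn {t : ℕ} (d : Fin t → ℕ) (i : ℕ) : ℕ := (Finset.univ.filter (fun k : Fin t => d k = i)).card

theorem cn_zero {t : ℕ} {d : Fin t → ℕ} (h1 : ∀ k, 1 ≤ d k) : cn d 0 = 0 := by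
  rw [cn, Finset.card_eq_zero, Finset.filter_eq_empty_iff]
  intro k _ h
  have := h1 k
  omega

theorem sup_eq {t : ℕ} {d : Fin t → ℕ} (h2 : ∀ k, d k ≤ 2) (h : cn d 2 ≠ 0) : Finset.univ.sup d = 2 := by
  apply le_antisymm
  · exact Finset.sup_le fun k _ => h2 k
  · rw [cn, ← Nat.pos_iff_ne_zero, Finset.card_pos] at h
    obtain ⟨k, hk⟩ := h
    rw [Finset.mem_filter] at hk
    rw [← hk.2]
    exact Finset.le_sup (f := d) (Finset.mem_univ k)

theorem exp_eq {t : ℕ} {d : Fin t → ℕ} (_h1 : ∀ k, 1 ≤ d k) (h2 : ∀ k, d k ≤ 2) (h : cn d 2 ≠ 0) :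
    2 * (∑ i ∈ Finset.range (Finset.univ.sup d + 1), ∑ j ∈ Finset.range (Finset.univ.sup d + 1),
      if i < j then i * (Finset.univ.filter (fun k : Fin t => d k = i)).card *
        (Finset.univ.filter (fun k : Fin t => d k = j)).card else 0) +
      ∑ i ∈ Finset.range (Finset.univ.sup d + 1), (i - 1) * (Finset.univ.filter (fun k : Fin t => d k = i)).card ^ 2 =
    2 * (cn d 1 * cn d 2) + cn d 2 ^ 2 := by
  rw [sup_eq h2 h]
  simp only [Finset.sum_range_succ, Finset.sum_range_zero]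
  simp [cn]

theorem prod_eq {M : Type*} [CommMonoid M] {t : ℕ} {d : Fin t → ℕ} (h1 : ∀ k, 1 ≤ d k) (h2 : ∀ k, d k ≤ 2)
    (h : cn d 2 ≠ 0) (f : ℕ → M) (hf : f 0 = 1) :
    ∏ i ∈ Finset.range (Finset.univ.sup d + 1), f (Finset.univ.filter (fun k : Fin t => d k = i)).card =
      f (cn d 1) * f (cn d 2) := by
  rw [sup_eq h2 h]
  have h0 := cn_zero h1
  rw [cn] at h0
  simp only [Finset.prod_range_succ, Finset.prod_range_zero, h0, hf, one_mul]
  rfl

theorem card_eq {t : ℕ} {d : Fin t → ℕ} (h1 : ∀ k, 1 ≤ d k) (h2 : ∀ k, d k ≤ 2) :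
    Fintype.card ((k : Fin t) × Fin (d k)) = cn d 1 + 2 * cn d 2 := by
  rw [Fintype.card_sigma]
  simp only [Fintype.card_fin]
  have h3 : ∀ k : Fin t, d k = (if d k = 1 then 1 else 0) + 2 * (if d k = 2 then 1 else 0) := by
    intro k
    have := h1 k
    have := h2 k
    split_ifs <;> omega
  rw [Finset.sum_congr rfl fun k _ => h3 k, Finset.sum_add_distrib, ← Finset.mul_sum]
  rw [cn, cn, Finset.card_filter, Finset.card_filter]

/-- `|GL_a(q)|` -/
def gl (q a : ℕ) : ℕ := ∏ j : Fin a, (q ^ a - q ^ (j : ℕ))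

/-- the centraliser in `GL` -/
theorem card_gl {F : Type*} [Field F] [Fintype F] {t : ℕ} {d : Fin t → ℕ} (h1 : ∀ k, 1 ≤ d k) (h2 : ∀ k, d k ≤ 2)
    (h : cn d 2 ≠ 0) {n : Type*} [Fintype n] [DecidableEq n] (e : ((k : Fin t) × Fin (d k)) ≃ n)
    (u : GL n F) (hu : IsConj (Matrix.reindex e e (Cfsg.jordanTypeMatrix d F)) (u : Matrix n n F)) :
    Nat.card ↥(Subgroup.centralizer ({u} : Set (GL n F))) =
      Fintype.card F ^ (2 * (cn d 1 * cn d 2) + cn d 2 ^ 2) * (gl (Fintype.card F) (cn d 1) * gl (Fintype.card F) (cn d 2)) := by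
  have h3 := Cfsg.Agent.S2581.result (F := F) rfl d h1
  rw [exp_eq h1 h2 h, prod_eq h1 h2 h (fun c => ∏ j : Fin c, (Fintype.card F ^ c - Fintype.card F ^ (j : ℕ))) (by simp)] at h3
  refine Eq.trans ?_ h3
  obtain ⟨P, hP⟩ := hu
  have hP' : (P : Matrix n n F) * Matrix.reindex e e (Cfsg.jordanTypeMatrix d F) = (u : Matrix n n F) * (P : Matrix n n F) := hP
  let R : Matrix n n F ≃* Matrix ((k : Fin t) × Fin (d k)) ((k : Fin t) × Fin (d k)) F :=
    (Matrix.reindexAlgEquiv F F e.symm).toMulEquiv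
  have hR : R (Matrix.reindex e e (Cfsg.jordanTypeMatrix d F)) = Cfsg.jordanTypeMatrix d F := by
    change Matrix.reindex e.symm e.symm (Matrix.reindex e e (Cfsg.jordanTypeMatrix d F)) = _
    ext i j
    simp
  let φ : GL n F ≃* GL ((k : Fin t) × Fin (d k)) F := (MulAut.conj P⁻¹).trans (Units.mapEquiv R)
  have hφ : ∀ g : GL n F, ((φ g : GL ((k : Fin t) × Fin (d k)) F) : Matrix _ _ F) =
      R (((P⁻¹ : GL n F) : Matrix n n F) * g * (P : Matrix n n F)) := by
    intro g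
    change R ((P⁻¹ * g * P⁻¹⁻¹ : GL n F) : Matrix n n F) = _
    rw [inv_inv]
    rfl
  have hu2 : R (((P⁻¹ : GL n F) : Matrix n n F) * u * (P : Matrix n n F)) = Cfsg.jordanTypeMatrix d F := by
    rw [mul_assoc, ← hP', ← mul_assoc, ← Units.val_mul, inv_mul_cancel, Units.val_one, one_mul, hR]
  refine Nat.card_congr (φ.toEquiv.subtypeEquiv fun g => ?_)
  rw [Subgroup.mem_centralizer_singleton_iff]
  change g * u = u * g ↔ (φ g).val * Cfsg.jordanTypeMatrix d F = Cfsg.jordanTypeMatrix d F * (φ g).val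
  rw [← hu2, ← hφ, ← Units.val_mul, ← Units.val_mul, Units.val_inj, ← map_mul, ← map_mul, φ.injective.eq_iff]

end Cfsg.Agent.R2.H3.JorNum
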