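import Cfsg.Agent.R2.H3.Num
import Cfsg.Agent.S2680
import Cfsg.Agent.S2681
import Cfsg.Agent.S2682
import Cfsg.Agent.S0246

/-!
# S3319: the symplectic groups in characteristic 2 (helper3, second round)
-/

set_option autoImplicit false

namespace Cfsg.Agent.R2.H3.Sp

open Subgroup Cfsg Cfsg.Agent.R2.H3

theorem numE1 {k a s : ℕ} (hs : Odd s) (ha : 2 ≤ s + a)
    (h : k * (2 * (s + a) * s - (3 * s ^ 2 - s) / 2 + ((s - 1) / 2) ^ 2 + a ^ 2) = 19) :
    k = 1 ∧ s = 5 ∧ a = 0 := by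
  have h1 : 2 * (s + a) * s = 2 * s ^ 2 + 2 * (a * s) := by ring
  rw [h1] at h
  have h2 : s < 7 := by
    by_contra hcon
    have h3 : 49 ≤ s ^ 2 := by nlinarith
    have h4 : k ≠ 0 := by rintro rfl; omega
    have h5 : 1 * (2 * s ^ 2 + 2 * (a * s) - (3 * s ^ 2 - s) / 2 + ((s - 1) / 2) ^ 2 + a ^ 2) ≤ 19 := by
      rw [← h]
      exact Nat.mul_le_mul_right _ (by omega)
    omega
  have h6 : a < 5 := by
    by_contra hcon
    have h3 : 25 ≤ a ^ 2 := by nlinarith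
    have h4 : k ≠ 0 := by rintro rfl; omega
    have h5 : 1 * (2 * s ^ 2 + 2 * (a * s) - (3 * s ^ 2 - s) / 2 + ((s - 1) / 2) ^ 2 + a ^ 2) ≤ 19 := by
      rw [← h]
      exact Nat.mul_le_mul_right _ (by omega)
    omega
  rcases prime_cases h with ⟨rfl, h7⟩ | ⟨rfl, h7⟩ <;> interval_cases s <;> interval_cases a <;>
    first | omega | (exfalso; revert hs; decide)

theorem numE2 {k a s : ℕ} (hs : Even s) (hs0 : s ≠ 0)
    (h : k * (2 * (s + a) * s - (3 * s ^ 2 - s) / 2 + (s / 2) ^ 2 + a ^ 2) = 19) : False := by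
  have h1 : 2 * (s + a) * s = 2 * s ^ 2 + 2 * (a * s) := by ring
  rw [h1] at h
  have h2 : s < 7 := by
    by_contra hcon
    have h3 : 49 ≤ s ^ 2 := by nlinarith
    have h4 : k ≠ 0 := by rintro rfl; omega
    have h5 : 1 * (2 * s ^ 2 + 2 * (a * s) - (3 * s ^ 2 - s) / 2 + (s / 2) ^ 2 + a ^ 2) ≤ 19 := by
      rw [← h]
      exact Nat.mul_le_mul_right _ (by omega)
    omega
  have h6 : a < 5 := by
    by_contra hcon
    have h3 : 25 ≤ a ^ 2 := by nlinarith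
    have h4 : k ≠ 0 := by rintro rfl; omega
    have h5 : 1 * (2 * s ^ 2 + 2 * (a * s) - (3 * s ^ 2 - s) / 2 + (s / 2) ^ 2 + a ^ 2) ≤ 19 := by
      rw [← h]
      exact Nat.mul_le_mul_right _ (by omega)
    omega
  rcases prime_cases h with ⟨rfl, h7⟩ | ⟨rfl, h7⟩ <;> interval_cases s <;> interval_cases a <;>
    first | omega | (exfalso; revert hs; decide)

theorem numE3 {k a s : ℕ} (hs : Even s) (hs0 : s ≠ 0)
    (h : k * (2 * (s + a) * s - (3 * s ^ 2 - 3 * s) / 2 - 1 + ((s - 2) / 2) ^ 2 + a ^ 2) = 19) : False := by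
  have h1 : 2 * (s + a) * s = 2 * s ^ 2 + 2 * (a * s) := by ring
  rw [h1] at h
  have h2 : s < 7 := by
    by_contra hcon
    have h3 : 49 ≤ s ^ 2 := by nlinarith
    have h4 : k ≠ 0 := by rintro rfl; omega
    have h5 : 1 * (2 * s ^ 2 + 2 * (a * s) - (3 * s ^ 2 - 3 * s) / 2 - 1 + ((s - 2) / 2) ^ 2 + a ^ 2) ≤ 19 := by
      rw [← h]
      exact Nat.mul_le_mul_right _ (by omega)
    omega
  have h6 : a < 5 := by
    by_contra hcon
    have h3 : 25 ≤ a ^ 2 := by nlinarith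
    have h4 : k ≠ 0 := by rintro rfl; omega
    have h5 : 1 * (2 * s ^ 2 + 2 * (a * s) - (3 * s ^ 2 - 3 * s) / 2 - 1 + ((s - 2) / 2) ^ 2 + a ^ 2) ≤ 19 := by
      rw [← h]
      exact Nat.mul_le_mul_right _ (by omega)
    omega
  rcases prime_cases h with ⟨rfl, h7⟩ | ⟨rfl, h7⟩ <;> interval_cases s <;> interval_cases a <;>
    first | omega | (exfalso; revert hs; decide)

theorem nc_sp {F : Type*} [Field F] [Fintype F] [CharP F 2] {m : ℕ} (hm : 2 ≤ m) :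
    NC ↥(Matrix.symplecticGroup (Fin m) F) := by
  intro t ht1 ht2 hc
  obtain ⟨k, hk, hF⟩ := card_two_pow F
  have hq : Even (2 ^ k) := even_two.pow_of_ne_zero hk
  have hq0 : 0 < 2 ^ k := by positivity
  rw [← pow_two] at ht2
  obtain ⟨s, hs⟩ : ∃ s, ((t : Matrix (Fin m ⊕ Fin m) (Fin m ⊕ Fin m) F) - 1).rank = s := ⟨_, rfl⟩
  have hsm : s ≤ m := by
    rw [← hs, ← Cfsg.Agent.H195.SpCent.finrank_im]
    exact Cfsg.Agent.H195.SpCent.finrank_im_le ht2
  obtain ⟨a, rfl⟩ := Nat.exists_eq_add_of_le hsm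
  have hs0 : s ≠ 0 := by
    rintro rfl
    apply ht1
    have h1 : ((t : Matrix (Fin (0 + a) ⊕ Fin (0 + a)) (Fin (0 + a) ⊕ Fin (0 + a)) F) - 1) = 0 :=
      eq_zero_of_rank hs
    exact Subtype.ext (sub_eq_zero.1 h1)
  rcases Nat.even_or_odd s with he | ho
  · by_cases halt : ∀ v : Fin (s + a) ⊕ Fin (s + a) → F, Cfsg.sympForm (s + a) F v
        ((t : Matrix (Fin (s + a) ⊕ Fin (s + a)) (Fin (s + a) ⊕ Fin (s + a)) F).mulVec v) = 0
    · rw [Cfsg.Agent.S2681.result hF t ht2 ht1 hs he halt, Nat.add_sub_cancel_left] at hc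
      have h1 := two_part (k := k) (E := 2 * (s + a) * s - (3 * s ^ 2 - s) / 2 + (s / 2) ^ 2 + a ^ 2)
        (m := (∏ i : Fin (s / 2), ((2 ^ k) ^ (2 * ((i : ℕ) + 1)) - 1)) * ∏ i : Fin a, ((2 ^ k) ^ (2 * ((i : ℕ) + 1)) - 1))
        ((odd_sp hq hq0 _).mul (odd_sp hq hq0 _)) (by rw [← hc, pow_add, pow_add]; ring)
      exact numE2 he hs0 h1.1
    · push Not at halt
      rw [Cfsg.Agent.S2682.result hF t ht2 hs he halt, Nat.add_sub_cancel_left] at hc
      have h1 := two_part (k := k) (E := 2 * (s + a) * s - (3 * s ^ 2 - 3 * s) / 2 - 1 + ((s - 2) / 2) ^ 2 + a ^ 2)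
        (m := (∏ i : Fin ((s - 2) / 2), ((2 ^ k) ^ (2 * ((i : ℕ) + 1)) - 1)) *
          ∏ i : Fin a, ((2 ^ k) ^ (2 * ((i : ℕ) + 1)) - 1))
        ((odd_sp hq hq0 _).mul (odd_sp hq hq0 _)) (by rw [← hc, pow_add, pow_add]; ring)
      exact numE3 he hs0 h1.1
  · rw [Cfsg.Agent.S2680.result hF t ht2 hs ho, Nat.add_sub_cancel_left] at hc
    have h1 := two_part (k := k) (E := 2 * (s + a) * s - (3 * s ^ 2 - s) / 2 + ((s - 1) / 2) ^ 2 + a ^ 2)
      (m := (∏ i : Fin ((s - 1) / 2), ((2 ^ k) ^ (2 * ((i : ℕ) + 1)) - 1)) *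
        ∏ i : Fin a, ((2 ^ k) ^ (2 * ((i : ℕ) + 1)) - 1))
      ((odd_sp hq hq0 _).mul (odd_sp hq hq0 _)) (by rw [← hc, pow_add, pow_add]; ring)
    obtain ⟨rfl, rfl, rfl⟩ := numE1 ho hm h1.1
    have h2 := h1.2
    revert h2
    decide

theorem nc_psp {F : Type} [Field F] [Fintype F] [CharP F 2] {m : ℕ} (hm : 2 ≤ m) : NC (PSp m F) := by
  have h1 : Nat.card ↥(center ↥(Matrix.symplecticGroup (Fin m) F)) = 1 := by
    obtain ⟨k, hk, hF⟩ := card_two_pow F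
    rw [Cfsg.Agent.S0246.result (F := F) hF m (by omega)]
    have h2 := odd_sub (k := 1) (even_two.pow_of_ne_zero hk) (by positivity) (by norm_num)
    rw [pow_one] at h2
    exact (Nat.coprime_two_left.2 h2)
  have h2 : center ↥(Matrix.symplecticGroup (Fin m) F) = ⊥ := Subgroup.eq_bot_of_card_eq _ h1
  exact (nc_sp hm).congr ((QuotientGroup.quotientMulEquivOfEq h2).trans QuotientGroup.quotientBot)

end Cfsg.Agent.R2.H3.Sp
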