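import Cfsg.Agent.R2.H3.CentU
import Cfsg.Agent.CTwoTab.Co1
import Cfsg.Agent.CTwoTab.FiTF
import Cfsg.Agent.CTwoTab.Monster
import Cfsg.Agent.H678.OZ.CoOneDod
import Cfsg.Agent.KFacts.FiTF.SheetF
import Cfsg.Agent.CoOneType.CentOctad

/-!
# S3319: the groups `Co1`, `Fi24'` and the Monster (helper3, second round)
-/

set_option autoImplicit false

namespace Cfsg.Agent.R2.H3.Spor

open Cfsg Subgroup

theorem orderOf_two {X : Type*} [Group X] {f : X} (hf : f ≠ 1) (hf2 : f * f = 1) : orderOf f = 2 :=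
  orderOf_eq_prime (by rw [pow_two, hf2]) hf

theorem card_conj {X : Type*} [Group X] (g s : X) :
    Nat.card ↥(centralizer ({g * s * g⁻¹} : Set X)) = Nat.card ↥(centralizer ({s} : Set X)) :=
  card_cent_congr (MulAut.conj g) s

/-- `Co1` -/
theorem nc_co1 : NC Cfsg.Spor.Co1 := by
  intro f hf hf2
  obtain ⟨g, s, hs, rfl⟩ := CTwoTab.Co1.exists_rep f (orderOf_two hf hf2)
  rw [card_conj]
  rcases hs with ⟨o, ho, rfl⟩ | ⟨d, hd, rfl⟩ | rfl
  · have h := CoOneType.CentOctad.card_centralizer ho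
    intro hc
    have h1 : (89181388800 : ℕ) ≤ 2 ^ 19 * 3465 := by
      rw [← hc]; exact h
    norm_num at h1
  · have h := H678.OZ.CoOneDod.card_cent d hd
    intro hc
    have h1 : (389283840 : ℕ) = 2 ^ 19 * 3465 := by
      rw [← hc]; exact h.symm
    norm_num at h1
  · intro hc
    have h := Subgroup.card_dvd_of_le (show KFacts.Co1D4.GTwo.L ≤ centralizer ({KFacts.Co1D4.TwoB.w} : Set Cfsg.Spor.Co1) from
      fun l hl => mem_centralizer_singleton_iff.2 (KFacts.Co1D4.TwoB.Lw l hl))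
    rw [KFacts.Co1D4.GTwo.card_L, hc] at h
    revert h
    decide

/-- `Fi24'` -/
theorem nc_fi24 : NC Cfsg.Spor.Fi24' := by
  intro f hf hf2
  have hfin := R08.FiTwentyFour.finite_Fi24
  rcases CTwoTab.FiTF.classes f (orderOf_two hf hf2) with ⟨a, b, P, h⟩ | ⟨g, rfl⟩
  · intro hc
    have h1 := Subgroup.card_dvd_of_le (CTwoTab.FiTF.N_le h)
    rw [Nat.card_congr (CTwoTab.FiTF.eN a b).toEquiv, OddHalf.D4.Spor.FiTF.card_Cab P, hc] at h1
    revert h1
    decide
  · rw [card_conj]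
    have h2 := KFacts.FiTF.Abs.card_CK KFacts.FiTF.frame
    rw [KFacts.FiTF.Order.card] at h2
    change Nat.card (centralizer ({CTwoTab.FiTF.z0} : Set Cfsg.Spor.Fi24')) * 2 = _ at h2
    intro hc
    rw [hc] at h2
    omega

section Mon

open Cfsg.Agent.MonsterX.Model Cfsg.Agent.MonsterX.MainPack Cfsg.Agent.MonsterX.MainSimple
  Cfsg.Agent.MonsterX.MainBasic Cfsg.Agent.MonsterU.Assembly

variable {W : Type} [AddCommGroup W] [Module ℚ W] {M : MData W} {K₀ : Type} [Group K₀]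

theorem nc_model (A : All M K₀) : NC M.G := by
  have hfin := G_finite A.hO
  intro f hf hf2
  have hL := Cfsg.Agent.MonsterU.ModelChart.large A.hG A.hR A.hL A.hO A.hT
  rcases A.classes f hf2 hf with ⟨g, hg⟩ | ⟨g, hg⟩
  · rw [← hg, card_conj]
    refine CentU.ne_of_pGroup _ (M.Q.subgroupOf M.G) ?_ ?_ ?_
    · intro x
      refine ⟨2, Subtype.ext ?_⟩
      have h4 : ((x : M.G) * x) * (x * x) = 1 := by
        rcases hL.sq x x.2 with e | e
        · rw [e, one_mul]
        · rw [e, hL.z_sq]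
      show (x : M.G) ^ (2 ^ 2) = 1
      rw [show (2 : ℕ) ^ 2 = 2 + 2 by norm_num, pow_add, pow_two]
      exact h4
    · intro x hx
      exact mem_centralizer_singleton_iff.2 (hL.comm_z x hx)
    · have h1 : Nat.card (M.Q.subgroupOf M.G) = 2 ^ 25 := by
        rw [← A.hG.Q_card]
        exact Nat.card_congr (Subgroup.subgroupOfEquivOfLe (A.hG.Q_le.trans C_le)).toEquiv
      rw [h1]
      norm_num
  · rw [← hg, card_conj, card_cent_t A.hG A.hR A.hL A.hO A.hT]
    norm_num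

end Mon

/-- the Monster -/
theorem nc_m {G : Type*} [Group G] (h : Cfsg.Spor.IsoM G) : NC G := by
  obtain ⟨e⟩ := h
  obtain ⟨f⟩ := Cfsg.Agent.MonsterP.Equiv.equiv
  exact NC.congr (e.trans f) (nc_model Cfsg.Agent.MonsterU.Uncond.all)

end Cfsg.Agent.R2.H3.Spor
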