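import Cfsg.Agent.R2.H3.CentU
import Cfsg.Agent.H83.TwESix
import Cfsg.Agent.H83.TwDFour
import Cfsg.Agent.H82.TwE6
import Cfsg.Agent.H82.TwD4
import Cfsg.Agent.ChevalleyStructure.FixedCard
import Cfsg.Agent.OrdDiv.Table

/-!
# S3319: the twisted groups `²E₆(q)`, `³D₄(q)`, `q` even (helper3, second round)
-/

set_option autoImplicit false

namespace Cfsg.Agent.R2.H3.TwExc

open Cfsg Cfsg.Lie Cfsg.Agent.ChevalleyStructure Cfsg.Agent.ChevalleyStructure.Elts Cfsg.Agent.H83.ChevInv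
  Cfsg.Agent.R2.H3.CentU Cfsg.Agent.ChevalleyStructure.UnipProd

section E6

open Cfsg.Agent.ChevalleyStructure.TwistedE6Sigma (rho eps)
open Cfsg.Agent.ChevalleyStructure.TwE6Basic (sg)

theorem hE6 : UnipOrd.InList chevE6 := TwE6Basic.hE6

/-- the exponent at the root `k` -/
def e6 (R : List ℕ) (k : ℕ) : ℕ :=
  if ca chevE6 R k && ca chevE6 R (rho k) then (if k < rho k then 2 else if rho k = k then 1 else 0) else 0

theorem tabE6 : ∀ k < 72, 36 ≤ k → 36 ≤ rho k ∧ rho k < 72 ∧ (k < rho k → chevE6.commTerms k (rho k) = []) ∧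
    (eps k = 1 ∨ eps k = -1) := by decide +kernel

variable {K : Type} [Field K] [Fintype K] [CharP K 2] {q : ℕ}

theorem card_e6 (hK : Fintype.card K = q ^ 2) (hq : IsPrimePow q) {R : List ℕ} (hR : ok chevE6 R = true)
    (hR' : PX hE6 K R ∈ twistedE6 K q) {n : ℕ} (hn : n ≤ ∑ k ∈ Finset.Ico 36 72, e6 R k) :
    q ^ n ≤ Nat.card ↥(Subgroup.centralizer {PX hE6 K R} ⊓ (twistedE6 K q ⊓ chevE6.posUnipotent K)) := by
  obtain ⟨φ, hφ, hqq⟩ := TwE6Basic.exists_frob hq hK
  have hφφ : ∀ t, φ (φ t) = t := fun t => by rw [hφ, hφ]; exact hqq t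
  have W := H82.TwE6.tw (q := q) hφ hφφ
  have hpos : ∀ k, chevE6.IsPosRoot k ↔ 36 ≤ k ∧ k < 72 := fun k => UnipOrd.isPosRoot_iff hE6 k
  have heps : ∀ k, 36 ≤ k → k < 72 → ((eps k : ℤ) : K) = 1 := by
    intro k h1 h2
    rcases (tabE6 k h2 h1).2.2.2 with h | h
    · rw [h, Int.cast_one]
    · rw [h, Int.cast_neg, Int.cast_one]
      exact CharTwo.neg_eq 1
  have hsg : ∀ k, 36 ≤ k → k < 72 → ∀ t : K, sg φ (xG hE6 k t) = xG hE6 (rho k) (φ t) := by
    intro k h1 h2 t
    have h := W.sg_X k ((hpos k).2 ⟨h1, h2⟩) t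
    rw [heps k h1 h2, one_mul] at h
    exact h
  rw [← inf_assoc]
  refine le_trans ?_ (card_prod hE6 (Subgroup.centralizer {PX hE6 K R} ⊓ twistedE6 K q) (fun k => q ^ e6 R k) ?_)
  · rw [Finset.prod_pow_eq_pow_sum]
    exact Nat.pow_le_pow_right hq.pos hn
  · intro k hk
    have hk' := (hpos k).1 hk
    have htab := tabE6 k hk'.2 hk'.1
    have hrpos : chevE6.IsPosRoot (rho k) := (hpos _).2 ⟨htab.1, htab.2.1⟩
    have h0 : ∃ S : Set K, 1 ≤ Nat.card S ∧ ∀ t ∈ S, ∃ v ∈ unipGE chevE6 K (k + 1), xG hE6 k t * v ∈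
        Subgroup.centralizer {PX hE6 K R} ⊓ twistedE6 K q := by
      refine ⟨{0}, by simp, fun t ht => ⟨1, one_mem _, ?_⟩⟩
      rw [Set.mem_singleton_iff] at ht
      rw [ht, xG_zero, one_mul]
      exact one_mem _
    by_cases hca : (ca chevE6 R k && ca chevE6 R (rho k)) = true
    · rw [Bool.and_eq_true] at hca
      rcases lt_trichotomy k (rho k) with hlt | heq | hgt
      · refine ⟨Set.univ, ?_, fun t _ => ⟨xG hE6 (rho k) (φ t), xG_mem_unipGE hE6 hrpos hlt _, ?_⟩⟩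
        · have : e6 R k = 2 := by simp [e6, hca.1, hca.2, hlt]
          rw [this, Nat.card_univ, Nat.card_eq_fintype_card, hK]
        · refine ⟨mul_mem (comm_PX' hE6 hR hk hca.1 t) (comm_PX' hE6 hR hrpos hca.2 _), ?_⟩
          refine W.U_fix _ (mul_mem (xG_mem_posUnipotent hE6 hk _) (xG_mem_posUnipotent hE6 hrpos _)) ?_
          have h3 : sg φ (xG hE6 (rho k) (φ t)) = xG hE6 k t := by
            rw [hsg _ htab.1 htab.2.1, hφφ, TwistedE6Sigma.rho_rho k hk'.2]
          show sg φ (xG hE6 k t * xG hE6 (rho k) (φ t)) = _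
          rw [map_mul, hsg k hk'.1 hk'.2, h3]
          exact comm_of_empty hE6 hk hrpos (htab.2.2.1 hlt) _ _
      · refine ⟨{t | t ^ q = t}, ?_, fun t ht => ⟨1, one_mem _, ?_⟩⟩
        · have : e6 R k = 1 := by
            have h4 : ¬ k < rho k := by omega
            simp [e6, hca.1, hca.2, h4, heq.symm]
          rw [this, pow_one]
          exact (FixedCard.card_fixed (K := K) hq.one_lt hK).ge
        · rw [mul_one]
          refine ⟨comm_PX' hE6 hR hk hca.1 t, W.U_fix _ (xG_mem_posUnipotent hE6 hk _) ?_⟩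
          show sg φ (xG hE6 k t) = _
          rw [hsg k hk'.1 hk'.2, ← heq, hφ]
          replace ht : t ^ q = t := ht
          rw [ht]
      · have : e6 R k = 0 := by
          have h4 : ¬ k < rho k := by omega
          have h5 : ¬ rho k = k := by omega
          simp [e6, h4, h5]
        show ∃ S : Set K, q ^ e6 R k ≤ _ ∧ _
        rw [this, pow_zero]
        exact h0
    · have : e6 R k = 0 := by unfold e6; rw [if_neg hca]
      show ∃ S : Set K, q ^ e6 R k ≤ _ ∧ _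
      rw [this, pow_zero]
      exact h0

theorem tab6 : ∀ R ∈ [[71], [66, 68], [53, 68, 66]], ok chevE6 R = true ∧ 20 ≤ ∑ k ∈ Finset.Ico 36 72, e6 R k := by
  decide +kernel

theorem nc_te6 (hK : Fintype.card K = q ^ 2) (hq : IsPrimePow q) : NC ↥(twistedE6 K q) := by
  refine nc_of_reps (twistedE6 K q) (chevE6.posUnipotent K) ((pGroup_U hE6).to_le inf_le_right) ?_
  intro t ht h2 h1
  obtain ⟨R, hR, g, hg, e⟩ := (H83.TwESix.exists_rep hK ht h2).resolve_left h1
  have hmem : PX hE6 K R ∈ twistedE6 K q := H83.TwESix.reps_mem hK R hR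
  refine ⟨g, hg, _, e, ?_⟩
  obtain ⟨hok, hn⟩ := tab6 R hR
  exact (Nat.pow_le_pow_left hq.two_le 20).trans (card_e6 hK hq hok hmem hn)

end E6

section D4

open Cfsg.Agent.H82.TwD4 (rho eps)

theorem hD4 : UnipOrd.InList chevD4 := H82.TwD4.hD4

variable {K : Type} [Field K] [Fintype K] [CharP K 2] {q : ℕ}

theorem card_d4 (hK : Fintype.card K = q ^ 3) (hq : IsPrimePow q) {R : List ℕ} (hR : ok chevD4 R = true)
    (hR22 : ca chevD4 R 22 = true) (hR23 : ca chevD4 R 23 = true) :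
    q ^ 2 ≤ Nat.card ↥(Subgroup.centralizer {PX hD4 K R} ⊓ (twistedD4 K q ⊓ chevD4.posUnipotent K)) := by
  obtain ⟨φ, hφ⟩ := D4Fixed.exists_frob hq hK
  have W := H82.TwD4.tw (q := q) hφ hK
  have hpos : ∀ k, chevD4.IsPosRoot k ↔ 12 ≤ k ∧ k < 24 := fun k => UnipOrd.isPosRoot_iff hD4 k
  rw [← inf_assoc]
  refine le_trans ?_ (card_prod hD4 (Subgroup.centralizer {PX hD4 K R} ⊓ twistedD4 K q)
    (fun k => q ^ (if k = 22 then 1 else if k = 23 then 1 else 0)) ?_)
  · rw [Finset.prod_pow_eq_pow_sum]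
    exact Nat.pow_le_pow_right hq.pos (by decide +kernel)
  · intro k hk
    have hfix : k = 22 ∨ k = 23 → ∃ S : Set K, q ≤ Nat.card S ∧ ∀ t ∈ S, ∃ v ∈ unipGE chevD4 K (k + 1), xG hD4 k t * v ∈
        Subgroup.centralizer {PX hD4 K R} ⊓ twistedD4 K q := by
      intro hk2
      have hrho : rho k = k := by rcases hk2 with rfl | rfl <;> decide
      have heps : eps k = 1 := by rcases hk2 with rfl | rfl <;> decide
      refine ⟨{t | t ^ q = t}, (FixedCard.card_fixed (K := K) hq.one_lt hK).ge, fun t ht => ⟨1, one_mem _, ?_⟩⟩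
      rw [mul_one]
      refine ⟨?_, W.U_fix _ (xG_mem_posUnipotent hD4 hk _) ?_⟩
      · rcases hk2 with rfl | rfl
        · exact comm_PX' hD4 hR hk hR22 t
        · exact comm_PX' hD4 hR hk hR23 t
      · have h3 := W.sg_X k hk t
        rw [hrho, heps, Int.cast_one, one_mul, hφ] at h3
        replace ht : t ^ q = t := ht
        rw [ht] at h3
        exact h3
    by_cases h22 : k = 22
    · show ∃ S : Set K, q ^ (if k = 22 then 1 else if k = 23 then 1 else 0) ≤ _ ∧ _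
      rw [if_pos h22, pow_one]
      exact hfix (Or.inl h22)
    · by_cases h23 : k = 23
      · show ∃ S : Set K, q ^ (if k = 22 then 1 else if k = 23 then 1 else 0) ≤ _ ∧ _
        rw [if_neg h22, if_pos h23, pow_one]
        exact hfix (Or.inr h23)
      · refine ⟨{0}, ?_, fun t ht => ⟨1, one_mem _, ?_⟩⟩
        · show q ^ (if k = 22 then 1 else if k = 23 then 1 else 0) ≤ _
          rw [if_neg h22, if_neg h23]
          simp
        · rw [Set.mem_singleton_iff] at ht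
          rw [ht, xG_zero, one_mul]
          exact one_mem _

theorem nc_td4 (hK : Fintype.card K = q ^ 3) (hq : IsPrimePow q) : NC ↥(twistedD4 K q) := by
  have hc := (Cfsg.Agent.OrdDiv.table.{0}).td4 K q hq hK
  obtain ⟨k, hk, rfl⟩ : ∃ k : ℕ, 1 ≤ k ∧ q = 2 ^ k := by
    obtain ⟨⟨m, hm⟩, hp, hcard⟩ := FiniteField.card K 2
    simp only [PNat.mk_coe] at hcard
    obtain ⟨p, k, hp', hk, rfl⟩ := (isPrimePow_nat_iff _).1 hq
    rw [hcard, ← pow_mul] at hK
    have h1 : p = 2 := by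
      have h2 : p ∣ 2 ^ m := by rw [hK]; exact dvd_pow_self p (by omega)
      exact (Nat.prime_dvd_prime_iff_eq hp' Nat.prime_two).1 (hp'.dvd_of_dvd_pow h2)
    exact ⟨k, hk, by rw [h1]⟩
  by_cases h10 : 10 ≤ k
  · refine nc_of_reps (twistedD4 K (2 ^ k)) (chevD4.posUnipotent K) ((pGroup_U hD4).to_le inf_le_right) ?_
    intro t ht h2 h1
    obtain ⟨R, hR, g, hg, e⟩ := (H83.TwDFour.exists_rep hK ht h2).resolve_left h1
    refine ⟨g, hg, _, e, ?_⟩
    have htab : ∀ R ∈ [[23], [18, 13, 12]], ok chevD4 R = true ∧ ca chevD4 R 22 = true ∧ ca chevD4 R 23 = true := by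
      decide +kernel
    obtain ⟨h3, h4, h5⟩ := htab R hR
    refine le_trans ?_ (card_d4 hK hq h3 h4 h5)
    rw [← pow_mul]
    exact Nat.pow_le_pow_right (by norm_num) (by omega)
  · refine NC.of_card ?_
    rw [hc]
    clear hc hq hK
    interval_cases k <;> decide +kernel

end D4

end Cfsg.Agent.R2.H3.TwExc
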