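import Cfsg.Agent.R2.H3.Lin
import Cfsg.Agent.S0279

/-!
# S3319: the unitary groups in characteristic 2 (helper3, second round)
-/

set_option autoImplicit false

namespace Cfsg.Agent.R2.H3.Uni

open Subgroup Cfsg Cfsg.Agent.R2.H3 Cfsg.Agent.R2.H3.Jor Cfsg.Agent.R2.H3.JorNum Cfsg.Agent.R2.H3.Lin

theorem gu_eq {q : ℕ} (hq : Even q) (hq0 : 0 < q) (a : ℕ) : ∃ m : ℕ, Odd m ∧
    (∏ j : Fin a, ((q : ℤ) ^ ((j : ℕ) + 1) - (-1) ^ ((j : ℕ) + 1))) = m := by
  refine ⟨∏ j : Fin a, (if Even (j : ℕ) then q ^ ((j : ℕ) + 1) + 1 else q ^ ((j : ℕ) + 1) - 1),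
    odd_prod _ _ fun j _ => ?_, ?_⟩
  · split_ifs
    · exact (hq.pow_of_ne_zero (by omega)).add_one
    · exact odd_sub hq hq0 (by omega)
  · push_cast
    apply Finset.prod_congr rfl
    intro j _
    by_cases h : Even (j : ℕ)
    · rw [if_pos h, Odd.neg_one_pow h.add_one]
      push_cast
      ring
    · rw [if_neg h, Even.neg_one_pow (by rw [Nat.even_add_one]; exact h), Nat.cast_sub (Nat.one_le_pow _ _ hq0)]
      push_cast
      ring

theorem pow_of_sq {q k : ℕ} (h : 2 ^ k = q ^ 2) : ∃ j, q = 2 ^ j := by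
  have h1 : q ∣ 2 ^ k := by rw [h, pow_two]; exact dvd_mul_right _ _
  obtain ⟨j, -, hj⟩ := (Nat.dvd_prime_pow Nat.prime_two).1 h1
  exact ⟨j, hj⟩

theorem nc_psu {F : Type} [Field F] [Fintype F] [CharP F 2] {n q : ℕ} (hq2 : Fintype.card F = q ^ 2) (hn : 3 ≤ n) :
    NC (PSU n F q) := by
  classical
  intro f hf hf2 hc
  obtain ⟨k0, hk0, hF⟩ := card_two_pow F
  obtain ⟨k, rfl⟩ := pow_of_sq (hF.symm.trans hq2)
  have hk : k ≠ 0 := by
    rintro rfl
    have := Fintype.one_lt_card (α := F)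
    rw [hq2] at this
    norm_num at this
  have hq : Even (2 ^ k) := even_two.pow_of_ne_zero hk
  have hq0 : 0 < 2 ^ k := by positivity
  have hodd : Odd (Nat.card Fˣ) := by
    rw [Nat.card_eq_fintype_card, Fintype.card_units, hF]
    have := odd_sub (k := 1) (even_two.pow_of_ne_zero hk0) (by positivity) (by norm_num)
    rwa [pow_one] at this
  have hcen : Odd (Nat.card ↥(center ↥(SU n F (2 ^ k)))) := by
    rw [Cfsg.Agent.S0279.result hq2 n hn]
    exact (hq.add_one).of_dvd_nat (Nat.gcd_dvd_right _ _)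
  obtain ⟨t, ht1, ht2, ht3⟩ := exists_lift hcen f hf hf2
  rw [hc] at ht3
  let A : Matrix (Fin n) (Fin n) F := ((t : Matrix.SpecialLinearGroup (Fin n) F) : Matrix (Fin n) (Fin n) F)
  have hA1 : A ≠ 1 := fun h => ht1 (Subtype.ext (Subtype.ext h))
  have hA2 : A * A = 1 := congrArg (fun x : ↥(SU n F (2 ^ k)) => ((x : Matrix.SpecialLinearGroup (Fin n) F) : Matrix (Fin n) (Fin n) F)) ht2
  obtain ⟨T, d, h1, h2, h3, e, h4⟩ := sl_num hA1 hA2
  let ι : ↥(SU n F (2 ^ k)) →* ↥(GU n F (2 ^ k)) :=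
    (Matrix.SpecialLinearGroup.toGL.comp (SU n F (2 ^ k)).subtype).codRestrict (GU n F (2 ^ k)) (by
      intro x
      exact x.2)
  have hinj : Function.Injective ι := by
    intro a b hab
    have h5 := congrArg Units.val (congrArg Subtype.val hab)
    exact Subtype.ext (Subtype.ext h5)
  let dt : ↥(GU n F (2 ^ k)) →* Fˣ := (Matrix.GeneralLinearGroup.det : GL (Fin n) F →* Fˣ).comp (GU n F (2 ^ k)).subtype
  have hker : ι.range = dt.ker := by
    ext g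
    constructor
    · rintro ⟨s, rfl⟩
      rw [MonoidHom.mem_ker]
      apply Units.ext
      exact (s : Matrix.SpecialLinearGroup (Fin n) F).2
    · intro h
      rw [MonoidHom.mem_ker] at h
      exact ⟨⟨⟨((g : GL (Fin n) F) : Matrix (Fin n) (Fin n) F), congrArg Units.val h⟩, g.2⟩, Subtype.ext (Units.ext rfl)⟩
  obtain ⟨r, hr1, hr2⟩ := cent_range ι hinj (by rw [hker]; infer_instance) t
  have hr : Odd r := by
    refine hodd.of_dvd_nat (hr1.trans ?_)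
    rw [hker, index_ker]
    exact card_subgroup_dvd_card _
  have h5 := Cfsg.Agent.S2646.result hq2 d h1 e (ι t) h4
  rw [exp_eq h1 h2 h3, prod_eq h1 h2 h3 (fun c => (((2 ^ k : ℕ) : ℤ) ^ (c * (c - 1) / 2) *
    ∏ j : Fin c, (((2 ^ k : ℕ) : ℤ) ^ ((j : ℕ) + 1) - (-1) ^ ((j : ℕ) + 1)))) (by simp)] at h5
  obtain ⟨m1, hm1, h6⟩ := gu_eq hq hq0 (cn d 1)
  obtain ⟨m2, hm2, h7⟩ := gu_eq hq hq0 (cn d 2)
  simp only [h6, h7] at h5
  rw [hr2, ht3] at h5
  have h5' : r * (2 ^ 19 * 3465 * Nat.card ↥(center ↥(SU n F (2 ^ k)))) =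
      (2 ^ k) ^ (2 * (cn d 1 * cn d 2) + cn d 2 ^ 2) * ((2 ^ k) ^ (cn d 1 * (cn d 1 - 1) / 2) * m1 *
        ((2 ^ k) ^ (cn d 2 * (cn d 2 - 1) / 2) * m2)) := by
    exact_mod_cast h5
  have h8 := two_part' (k := k) (E := 2 * (cn d 1 * cn d 2) + cn d 2 ^ 2 + cn d 1 * (cn d 1 - 1) / 2 +
    cn d 2 * (cn d 2 - 1) / 2) (m := m1 * m2) (hr.mul hcen) (hm1.mul hm2) (by
      rw [pow_add, pow_add]
      calc _ = r * (2 ^ 19 * 3465 * Nat.card ↥(center ↥(SU n F (2 ^ k)))) := by ring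
        _ = _ := by rw [h5']; ring)
  obtain ⟨rfl, ha, hb⟩ := numL h3 h8
  have h9 := card_eq h1 h2
  rw [Fintype.card_congr e, Fintype.card_fin, ha, hb] at h9
  omega

end Cfsg.Agent.R2.H3.Uni
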